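import Mathlib
import Cfsg.Prelude.Def_JComponents
import Cfsg.Agent.Lib.Helper81.KS12.JCompConj
import Cfsg.Agent.Lib.Helper81.KS12.S2950Core
import Cfsg.Agent.Lib.Helper2.KS12.V4

/-!
# S2953, package (CJ): conjugating a `J(T)`-component outside `M` by an element of `M ∩ N_G(T)`

For `x ∈ M ∩ N_G(T)` and `K ∈ jComponentsOutside M T`, the conjugate `K^x` is again in
`jComponentsOutside M T`; if `L` is the unique maximal 2-local subgroup containing `⟨K, T⟩` and
`x ∉ L`, then `K^x ≠ K` and `O₂(⟨⟨K, T⟩, ⟨K^x, T⟩⟩) = 1`.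
-/

set_option autoImplicit false

namespace Cfsg.Agent.Lib.Helper21.KS12

open Cfsg

universe u

variable {G : Type u} [Group G]

theorem sup_map_conj {T K : Subgroup G} {x : G} (hx : x ∈ Subgroup.normalizer (T : Set G)) :
    (K ⊔ T).map (MulAut.conj x).toMonoidHom = K.map (MulAut.conj x).toMonoidHom ⊔ T := by
  rw [Subgroup.map_sup, Cfsg.Agent.Lib.Helper11.map_conj_eq_of_mem_normalizer hx]

theorem thompson_map_conj {T : Subgroup G} {x : G} (hx : x ∈ Subgroup.normalizer (T : Set G)) :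
    (thompsonSubgroupOf 2 T).map (MulAut.conj x).toMonoidHom = thompsonSubgroupOf 2 T := by
  have hinj : Function.Injective (MulAut.conj x).toMonoidHom := (MulAut.conj x).injective
  have h := Cfsg.Agent.Lib.Helper11.thompsonSubgroupOf_map 2 (MulAut.conj x).toMonoidHom hinj T
  rw [Cfsg.Agent.Lib.Helper11.map_conj_eq_of_mem_normalizer hx] at h
  exact h.symm

/-- Conjugation by an element of `N_G(T)` preserves `jComponentsZero T`. -/
theorem jComponentsZero_map_conj {T K : Subgroup G} (hK : K ∈ jComponentsZero T) {x : G}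
    (hx : x ∈ Subgroup.normalizer (T : Set G)) :
    K.map (MulAut.conj x).toMonoidHom ∈ jComponentsZero T := by
  obtain ⟨hK1, hK2⟩ := hK
  have hJ := thompson_map_conj hx
  have hinj : Function.Injective (MulAut.conj x).toMonoidHom := (MulAut.conj x).injective
  refine ⟨Cfsg.Agent.Lib.Helper81.KS12.isJComponent_map hK1 (MulAut.conj x) hJ, ?_⟩
  intro S hJS hS
  have hSS : (S.map (MulAut.conj x⁻¹).toMonoidHom).map (MulAut.conj x).toMonoidHom = S :=
    Cfsg.Agent.Lib.Helper47.map_conj_map_conj_inv S x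
  have hN : Subgroup.normalizer (wOf (K.map (MulAut.conj x).toMonoidHom) : Set G) =
      (Subgroup.normalizer (wOf K : Set G)).map (MulAut.conj x).toMonoidHom := by
    rw [Cfsg.Agent.Lib.Helper81.KS12.wOf_map, Cfsg.Agent.Lib.Helper47.normalizer_map_conj]
  rw [hN] at hS
  obtain ⟨hS1, hS2, hS3⟩ := hS
  have hS' : IsSylowTwoIn (S.map (MulAut.conj x⁻¹).toMonoidHom)
      (Subgroup.normalizer (wOf K : Set G)) := by
    refine ⟨?_, hS2.map _, ?_⟩
    · rw [← Subgroup.map_le_map_iff_of_injective hinj, hSS]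
      exact hS1
    · rw [← Subgroup.relIndex_map_map_of_injective _ _ hinj, hSS]
      exact hS3
  have hJS' : thompsonSubgroupOf 2 T ≤ S.map (MulAut.conj x⁻¹).toMonoidHom := by
    rw [← Subgroup.map_le_map_iff_of_injective hinj, hSS, hJ]
    exact hJS
  have h7 := hK2 _ hJS' hS'
  rw [← hSS, Cfsg.Agent.Lib.Helper11.thompsonSubgroupOf_map 2 (MulAut.conj x).toMonoidHom hinj,
    h7, hJ]

/-- **(CJ1)** Conjugation by an element of `M ∩ N_G(T)` preserves `jComponentsOutside M T`. -/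
theorem jComponentsOutside_map_conj {M T K : Subgroup G} (hK : K ∈ jComponentsOutside M T)
    {x : G} (hxM : x ∈ M) (hx : x ∈ Subgroup.normalizer (T : Set G)) :
    K.map (MulAut.conj x).toMonoidHom ∈ jComponentsOutside M T := by
  obtain ⟨hK1, hK2, hK3⟩ := hK
  refine ⟨jComponentsZero_map_conj hK1 hx, ?_, ?_⟩
  · intro hle
    apply hK2
    intro k hk
    have h1 : x * k * x⁻¹ ∈ M := hle ⟨k, hk, rfl⟩
    have h2 : x⁻¹ * (x * k * x⁻¹) * x ∈ M := M.mul_mem (M.mul_mem (M.inv_mem hxM) h1) hxM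
    have e : x⁻¹ * (x * k * x⁻¹) * x = k := by group
    rwa [e] at h2
  · rw [← sup_map_conj hx, Cfsg.Agent.Lib.Helper46.pCoreOf_map]
    exact Cfsg.Agent.Lib.Helper47.map_conj_ne_bot hK3 x

/-- **(CJ2)** If `L` is the unique maximal 2-local subgroup containing `⟨K, T⟩`, an element of
`N_G(T)` outside `L` moves `K`. -/
theorem map_conj_ne_of_unique {T K L : Subgroup G} (hLmax : IsMaximalTwoLocal L)
    (hPL : K ⊔ T ≤ L)
    (huniq : ∀ L' : Subgroup G, IsMaximalTwoLocal L' → K ⊔ T ≤ L' → L' = L) {x : G}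
    (hx : x ∈ Subgroup.normalizer (T : Set G)) (hxL : x ∉ L) :
    K.map (MulAut.conj x).toMonoidHom ≠ K := by
  intro hKx
  have h1 : (K ⊔ T).map (MulAut.conj x).toMonoidHom = K ⊔ T := by rw [sup_map_conj hx, hKx]
  have h2 : K ⊔ T ≤ L.map (MulAut.conj x).toMonoidHom :=
    calc K ⊔ T = (K ⊔ T).map (MulAut.conj x).toMonoidHom := h1.symm
      _ ≤ L.map (MulAut.conj x).toMonoidHom := Subgroup.map_mono hPL
  have h3 := huniq _ (Cfsg.Agent.Lib.Helper2.KS12.isMaximalTwoLocal_map_conj hLmax x) h2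
  have h4 : x ∈ Subgroup.normalizer (L : Set G) :=
    Cfsg.Agent.Lib.Helper11.mem_normalizer_of_map_conj_eq h3
  exact hxL (Cfsg.Agent.Lib.Helper2.KS12.normalizer_le_of_isMaximalTwoLocal hLmax h4)

/-- The variant of (CJ2) from `N_G(K) ≤ L`. -/
theorem map_conj_ne_of_normalizer_le {K L : Subgroup G}
    (hNK : Subgroup.normalizer (K : Set G) ≤ L) {x : G} (hxL : x ∉ L) :
    K.map (MulAut.conj x).toMonoidHom ≠ K :=
  fun h => hxL (hNK (Cfsg.Agent.Lib.Helper11.mem_normalizer_of_map_conj_eq h))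

/-- **(CJ3)** If `L` is the unique maximal 2-local subgroup containing `⟨K, T⟩` and
`x ∈ N_G(T)` is not in `L`, then `O₂(⟨⟨K, T⟩, ⟨K^x, T⟩⟩) = 1`. -/
theorem pCoreOf_sup_conj_eq_bot [Finite G] {T K L : Subgroup G} (hLmax : IsMaximalTwoLocal L)
    (huniq : ∀ L' : Subgroup G, IsMaximalTwoLocal L' → K ⊔ T ≤ L' → L' = L) {x : G}
    (hx : x ∈ Subgroup.normalizer (T : Set G)) (hxL : x ∉ L) :
    pCoreOf 2 ((K ⊔ T) ⊔ (K.map (MulAut.conj x).toMonoidHom ⊔ T)) = ⊥ := by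
  haveI : Fact (Nat.Prime 2) := ⟨Nat.prime_two⟩
  by_contra hR
  have hloc : IsTwoLocal (Subgroup.normalizer
      (pCoreOf 2 ((K ⊔ T) ⊔ (K.map (MulAut.conj x).toMonoidHom ⊔ T)) : Set G)) :=
    ⟨_, Cfsg.Agent.Lib.Helper47.pCoreOf_isPGroup 2 _, hR, rfl⟩
  obtain ⟨L', hL'max, hL'⟩ := Cfsg.Agent.Lib.Helper81.KS12.exists_isMaximalTwoLocal_ge hloc
  have hH : (K ⊔ T) ⊔ (K.map (MulAut.conj x).toMonoidHom ⊔ T) ≤ L' :=
    (Cfsg.Agent.Lib.Helper47.le_normalizer_pCoreOf 2 _).trans hL'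
  have hL'L : L' = L := huniq L' hL'max (le_sup_left.trans hH)
  rw [hL'L] at hH
  have h2 : K.map (MulAut.conj x).toMonoidHom ⊔ T ≤ L := le_sup_right.trans hH
  rw [← sup_map_conj hx] at h2
  have h3 : K ⊔ T ≤ L.map (MulAut.conj x⁻¹).toMonoidHom := by
    have := Subgroup.map_mono (f := (MulAut.conj x⁻¹).toMonoidHom) h2
    rwa [Cfsg.Agent.Lib.Helper47.map_conj_inv_map_conj] at this
  have h4 := huniq _ (Cfsg.Agent.Lib.Helper2.KS12.isMaximalTwoLocal_map_conj hLmax x⁻¹) h3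
  have h5 : x⁻¹ ∈ Subgroup.normalizer (L : Set G) :=
    Cfsg.Agent.Lib.Helper11.mem_normalizer_of_map_conj_eq h4
  have h6 : x⁻¹ ∈ L := Cfsg.Agent.Lib.Helper2.KS12.normalizer_le_of_isMaximalTwoLocal hLmax h5
  exact hxL (by simpa using L.inv_mem h6)

/-- **(CJ)** assembled: the second component `K₂ = K^x`. -/
theorem exists_second_component [Finite G] {M T K L : Subgroup G}
    (hK : K ∈ jComponentsOutside M T) (hLmax : IsMaximalTwoLocal L) (hPL : K ⊔ T ≤ L)
    (huniq : ∀ L' : Subgroup G, IsMaximalTwoLocal L' → K ⊔ T ≤ L' → L' = L) {x : G}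
    (hxM : x ∈ M) (hx : x ∈ Subgroup.normalizer (T : Set G)) (hxL : x ∉ L) :
    ∃ K₂ : Subgroup G, K₂ ∈ jComponentsOutside M T ∧ K ≠ K₂ ∧
      pCoreOf 2 ((K ⊔ T) ⊔ (K₂ ⊔ T)) = ⊥ :=
  ⟨_, jComponentsOutside_map_conj hK hxM hx,
    (map_conj_ne_of_unique hLmax hPL huniq hx hxL).symm,
    pCoreOf_sup_conj_eq_bot hLmax huniq hx hxL⟩

end Cfsg.Agent.Lib.Helper21.KS12
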